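import Cfsg.Agent.Lib.Helper21.O10.Defs
import Cfsg.Agent.Lib.Helper15.OE.CB

set_option autoImplicit false
set_option linter.unusedSectionVars false

namespace Cfsg.Agent.Lib.Helper64.O10

open Cfsg Cfsg.Geo Matrix Cfsg.Agent.Lib.Helper13.Asch Cfsg.Agent.Lib.Helper90.Sp
  Cfsg.Agent.Lib.Helper57.OE Cfsg.Agent.Lib.Helper21.O10
open scoped Kronecker MatrixGroups commutatorElement

variable {ι : Type} [Fintype ι] [DecidableEq ι] {F : Type*} [Field F] {Q : (ι → F) → F}

/-- (after helper15's CB) the eigenspaces of an idempotent whose adjoint is its complement -/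
theorem ts_of_idempotent [Fintype F] (hQ : IsNondegenerateQuadraticForm Q)
    (hι : 2 < Fintype.card ι) {H : Subgroup (GL ι F)} (hH : FixesQuadForm (matrixSet H) Q)
    (hirr : ActsIrreducibly (matrixSet H)) (e : Matrix ι ι F) (hidem : e * e = e)
    (hadj : ∀ u v, QuadraticMap.polar Q (e *ᵥ u) v = QuadraticMap.polar Q u ((1 - e) *ᵥ v))
    (hperm : ∀ h ∈ H, (h : Matrix ι ι F) * e * ((h⁻¹ : GL ι F) : Matrix ι ι F) = e ∨
      (h : Matrix ι ι F) * e * ((h⁻¹ : GL ι F) : Matrix ι ι F) = 1 - e) :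
    IsCompl (LinearMap.ker (Matrix.toLin' (1 - e))) (LinearMap.ker (Matrix.toLin' e)) ∧
      IsTotallySingularQuad Q (LinearMap.ker (Matrix.toLin' (1 - e))) := by
  classical
  set B := Cfsg.Agent.Lib.Helper94.pB (Cfsg.Agent.Lib.Helper94.quadOf Q hQ) with hB
  have hBnd : B.Nondegenerate := Cfsg.Agent.Lib.Helper94.pB_quadOf_nondegenerate Q hQ
  have hBap : ∀ x y, B x y = QuadraticMap.polar Q x y := fun x y => rfl
  have hBrefl : B.IsRefl := by
    intro x y h
    rw [hBap] at h ⊢
    rw [QuadraticMap.polar_comm]; exact h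
  have hpz : ∀ v, QuadraticMap.polar Q 0 v = 0 := by
    intro v
    have := hQ.polar_bilinear.smul_left 0 0 v
    simpa using this
  have hpz' : ∀ v, QuadraticMap.polar Q v 0 = 0 := by
    intro v
    have := hQ.polar_bilinear.smul_right 0 v 0
    simpa using this
  -- the two eigenspaces
  set U : Submodule F (ι → F) := LinearMap.ker (Matrix.toLin' (1 - e)) with hUdef
  set U' : Submodule F (ι → F) := LinearMap.ker (Matrix.toLin' e) with hU'def
  have memU : ∀ u, u ∈ U ↔ e *ᵥ u = u := by
    intro u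
    rw [hUdef, LinearMap.mem_ker, Matrix.toLin'_apply, Matrix.sub_mulVec, Matrix.one_mulVec,
      sub_eq_zero, eq_comm]
  have memU' : ∀ u, u ∈ U' ↔ e *ᵥ u = 0 := by
    intro u
    rw [hU'def, LinearMap.mem_ker, Matrix.toLin'_apply]
  have isoU : ∀ u ∈ U, ∀ v ∈ U, QuadraticMap.polar Q u v = 0 := by
    intro u hu v hv
    rw [← (memU u).1 hu, hadj, Matrix.sub_mulVec, Matrix.one_mulVec, (memU v).1 hv, sub_self, hpz']
  have isoU' : ∀ u ∈ U', ∀ v ∈ U', QuadraticMap.polar Q u v = 0 := by
    intro u hu v hv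
    have h1 : (1 - e) *ᵥ v = v := by
      rw [Matrix.sub_mulVec, Matrix.one_mulVec, (memU' v).1 hv, sub_zero]
    rw [← h1, ← hadj, (memU' u).1 hu, hpz]
  have hcompl : IsCompl U U' := by
    constructor
    · rw [Submodule.disjoint_def]
      intro x hx hx'
      rw [← (memU x).1 hx, (memU' x).1 hx']
    · rw [codisjoint_iff, eq_top_iff]
      intro x _
      have hx : x = e *ᵥ x + (1 - e) *ᵥ x := by
        rw [Matrix.sub_mulVec, Matrix.one_mulVec]; abel
      rw [hx]
      refine Submodule.add_mem_sup ?_ ?_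
      · rw [memU, Matrix.mulVec_mulVec, hidem]
      · rw [memU', Matrix.mulVec_mulVec, mul_sub, mul_one, hidem, sub_self, Matrix.zero_mulVec]
  have hsum := Submodule.finrank_add_eq_of_isCompl hcompl
  have hle1 : U ≤ B.orthogonal U := by
    intro u hu
    rw [LinearMap.BilinForm.mem_orthogonal_iff]
    intro v hv
    exact isoU v hv u hu
  have hle2 : U' ≤ B.orthogonal U' := by
    intro u hu
    rw [LinearMap.BilinForm.mem_orthogonal_iff]
    intro v hv
    exact isoU' v hv u hu
  have hf1 := LinearMap.BilinForm.finrank_orthogonal hBnd U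
  have hf2 := LinearMap.BilinForm.finrank_orthogonal hBnd U'
  have hl1 := Submodule.finrank_mono hle1
  have hl2 := Submodule.finrank_mono hle2
  have hn : Module.finrank F (ι → F) = Fintype.card ι := Module.finrank_fintype_fun_eq_card F
  have hhalf : 2 * Module.finrank F U = Module.finrank F (ι → F) := by omega
  have hhalf' : 2 * Module.finrank F U' = Module.finrank F (ι → F) := by omega
  refine ⟨hcompl, ?_⟩
  by_cases h2 : (2 : F) = 0
  · -- characteristic 2
    set U0 := Cfsg.Agent.Lib.Helper15.OE.singPart Q hQ U isoU with hU0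
    set U0' := Cfsg.Agent.Lib.Helper15.OE.singPart Q hQ U' isoU' with hU0'
    have hinv : ∀ s ∈ matrixSet H, (U0 ⊔ U0').map (Matrix.toLin' s) ≤ U0 ⊔ U0' := by
      rintro s ⟨h, hh, rfl⟩
      have hcancel : ((h⁻¹ : GL ι F) : Matrix ι ι F) * (h : Matrix ι ι F) = 1 := by
        rw [← Units.val_mul, inv_mul_cancel, Units.val_one]
      have hfix : ∀ v, Q ((h : Matrix ι ι F) *ᵥ v) = Q v := hH _ ⟨h, hh, rfl⟩
      have key : ∀ (M : Matrix ι ι F),
          (h : Matrix ι ι F) * e * ((h⁻¹ : GL ι F) : Matrix ι ι F) = M → ∀ v,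
          M *ᵥ ((h : Matrix ι ι F) *ᵥ v) = (h : Matrix ι ι F) *ᵥ (e *ᵥ v) := by
        intro M hM v
        rw [← hM, Matrix.mulVec_mulVec, Matrix.mul_assoc, hcancel, Matrix.mul_one,
          Matrix.mulVec_mulVec]
      rw [Submodule.map_sup]
      rcases hperm h hh with hc | hc
      · refine sup_le_sup ?_ ?_
        · rintro _ ⟨x, ⟨hx, hx0⟩, rfl⟩
          refine ⟨?_, ?_⟩
          · rw [memU, Matrix.toLin'_apply, key e hc, (memU x).1 hx]
          · rw [Matrix.toLin'_apply, hfix, hx0]
        · rintro _ ⟨x, ⟨hx, hx0⟩, rfl⟩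
          refine ⟨?_, ?_⟩
          · rw [memU', Matrix.toLin'_apply, key e hc, (memU' x).1 hx, Matrix.mulVec_zero]
          · rw [Matrix.toLin'_apply, hfix, hx0]
      · rw [sup_comm]
        refine sup_le_sup ?_ ?_
        · rintro _ ⟨x, ⟨hx, hx0⟩, rfl⟩
          refine ⟨?_, ?_⟩
          · have := key (1 - e) hc x
            rw [(memU' x).1 hx, Matrix.mulVec_zero, Matrix.sub_mulVec, Matrix.one_mulVec,
              sub_eq_zero] at this
            rw [memU, Matrix.toLin'_apply]
            exact this.symm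
          · rw [Matrix.toLin'_apply, hfix, hx0]
        · rintro _ ⟨x, ⟨hx, hx0⟩, rfl⟩
          refine ⟨?_, ?_⟩
          · have := key (1 - e) hc x
            rw [(memU x).1 hx, Matrix.sub_mulVec, Matrix.one_mulVec, sub_eq_self] at this
            rw [memU', Matrix.toLin'_apply]
            exact this
          · rw [Matrix.toLin'_apply, hfix, hx0]
    rcases hirr _ hinv with hbot | htop
    · exfalso
      rw [sup_eq_bot_iff] at hbot
      have h1 := Cfsg.Agent.Lib.Helper15.OE.finrank_le_one_of_singPart h2 hQ U isoU hbot.1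
      omega
    · intro u hu
      have hmem : u ∈ U0 ⊔ U0' := by rw [htop]; trivial
      obtain ⟨a, ha, b, hb, hab⟩ := Submodule.mem_sup.1 hmem
      have h1 : e *ᵥ u = a := by
        rw [← hab, Matrix.mulVec_add, (memU a).1 ha.1, (memU' b).1 hb.1, add_zero]
      rw [(memU u).1 hu] at h1
      rw [h1]; exact ha.2
  · intro u hu
    have h := isoU u hu u hu
    rw [QuadraticMap.polar, ← two_smul F u, hQ.smul] at h
    have h' : 2 * Q u = 0 := by linear_combination h
    exact (mul_eq_zero.1 h').resolve_left h2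


lemma map_ker_conj (M : Matrix ι ι F) (h : GL ι F) :
    (LinearMap.ker (Matrix.toLin' M)).map (Matrix.toLin' (h : Matrix ι ι F)) =
      LinearMap.ker (Matrix.toLin' ((h : Matrix ι ι F) * M * ((h⁻¹ : GL ι F) : Matrix ι ι F))) := by
  have h1 : ((h⁻¹ : GL ι F) : Matrix ι ι F) * (h : Matrix ι ι F) = 1 := by
    rw [← Units.val_mul, inv_mul_cancel, Units.val_one]
  have h2 : (h : Matrix ι ι F) * ((h⁻¹ : GL ι F) : Matrix ι ι F) = 1 := by
    rw [← Units.val_mul, mul_inv_cancel, Units.val_one]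
  ext x
  constructor
  · rintro ⟨u, hu, rfl⟩
    rw [SetLike.mem_coe, LinearMap.mem_ker, Matrix.toLin'_apply] at hu
    rw [LinearMap.mem_ker, Matrix.toLin'_apply, Matrix.toLin'_apply, Matrix.mulVec_mulVec, mul_assoc, h1,
      mul_one, ← Matrix.mulVec_mulVec, hu, Matrix.mulVec_zero]
  · intro hx
    rw [LinearMap.mem_ker, Matrix.toLin'_apply] at hx
    refine ⟨((h⁻¹ : GL ι F) : Matrix ι ι F) *ᵥ x, ?_, ?_⟩
    · rw [SetLike.mem_coe, LinearMap.mem_ker, Matrix.toLin'_apply]
      have := congrArg (fun v => ((h⁻¹ : GL ι F) : Matrix ι ι F) *ᵥ v) hx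
      simp only [Matrix.mulVec_mulVec, Matrix.mulVec_zero] at this
      rw [← mul_assoc, ← mul_assoc, h1, one_mul] at this
      rw [Matrix.mulVec_mulVec]
      exact this
    · rw [Matrix.toLin'_apply, Matrix.mulVec_mulVec, h2, Matrix.one_mulVec]

/-- G1 -/
theorem pair_of_idempotent [Fintype F] (hQ : IsNondegenerateQuadraticForm Q)
    (hι : 2 < Fintype.card ι) {H : Subgroup (GL ι F)} (hH : FixesQuadForm (matrixSet H) Q)
    (hirr : ActsIrreducibly (matrixSet H)) (e : Matrix ι ι F) (hidem : e * e = e)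
    (hadj : ∀ u v, QuadraticMap.polar Q (e *ᵥ u) v = QuadraticMap.polar Q u ((1 - e) *ᵥ v))
    (hperm : ∀ h ∈ H, (h : Matrix ι ι F) * e * ((h⁻¹ : GL ι F) : Matrix ι ι F) = e ∨
      (h : Matrix ι ι F) * e * ((h⁻¹ : GL ι F) : Matrix ι ι F) = 1 - e) :
    RPair Q H := by
  have hone : ∀ h : GL ι F, (h : Matrix ι ι F) * (1 - e) * ((h⁻¹ : GL ι F) : Matrix ι ι F)
      = 1 - (h : Matrix ι ι F) * e * ((h⁻¹ : GL ι F) : Matrix ι ι F) := by
    intro h
    rw [mul_sub, sub_mul, mul_one, ← Units.val_mul, mul_inv_cancel, Units.val_one]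
  obtain ⟨hc, hts⟩ := ts_of_idempotent hQ hι hH hirr e hidem hadj hperm
  obtain ⟨-, hts'⟩ := ts_of_idempotent hQ hι hH hirr (1 - e)
    (by simp only [mul_sub, sub_mul, mul_one, one_mul, hidem]; abel)
    (by
      intro u v
      have hsubl : ∀ a b c, QuadraticMap.polar Q (a - b) c
          = QuadraticMap.polar Q a c - QuadraticMap.polar Q b c := by
        intro a b c
        have h1 := hQ.polar_bilinear.add_left a ((-1 : F) • b) c
        rw [hQ.polar_bilinear.smul_left] at h1
        have : a - b = a + (-1 : F) • b := by rw [neg_smul, one_smul, sub_eq_add_neg]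
        rw [this, h1]; ring
      have hsubr : ∀ a b c, QuadraticMap.polar Q c (a - b)
          = QuadraticMap.polar Q c a - QuadraticMap.polar Q c b := by
        intro a b c
        have h1 := hQ.polar_bilinear.add_right c a ((-1 : F) • b)
        rw [hQ.polar_bilinear.smul_right] at h1
        have : a - b = a + (-1 : F) • b := by rw [neg_smul, one_smul, sub_eq_add_neg]
        rw [this, h1]; ring
      rw [sub_sub_cancel, Matrix.sub_mulVec, Matrix.one_mulVec, hsubl, hadj, Matrix.sub_mulVec,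
        Matrix.one_mulVec, hsubr]
      ring)
    (by
      intro h hh
      rw [hone, sub_sub_cancel]
      rcases hperm h hh with hp | hp
      · left; rw [hp]
      · right; rw [hp, sub_sub_cancel])
  rw [sub_sub_cancel] at hts'
  refine ⟨_, _, hc, hts, hts', ?_⟩
  intro h hh
  rw [map_ker_conj, map_ker_conj, hone]
  rcases hperm h hh with hp | hp
  · left; rw [hp]; exact ⟨rfl, rfl⟩
  · right; rw [hp, sub_sub_cancel]; exact ⟨rfl, rfl⟩

end Cfsg.Agent.Lib.Helper64.O10
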