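import Cfsg.Agent.Lib.Helper21.O10.Defs
import Cfsg.Agent.Lib.Helper12.OE.CD

set_option autoImplicit false
set_option linter.unusedSectionVars false

namespace Cfsg.Agent.Lib.Helper64.O10

open Cfsg Cfsg.Geo Matrix Cfsg.Agent.Lib.Helper13.Asch Cfsg.Agent.Lib.Helper90.Sp
  Cfsg.Agent.Lib.Helper57.OE Cfsg.Agent.Lib.Helper21.O10
open Cfsg.Agent.Lib.Helper12.Sp (Adj)
open Cfsg.Agent.Lib.Helper12.OE (adj_unique adj_symm adj_add adj_algMap)
open scoped Kronecker MatrixGroups commutatorElement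

variable {ι : Type} [Fintype ι] [DecidableEq ι] {F : Type*} [Field F] {Q : (ι → F) → F}

/-- abstract form: a finite extension with an `F`-automorphism of order two has even degree -/
theorem even_finrank_of_involution [Fintype F] (L : Type*) [Field L] [Finite L] [Algebra F L]
    (σ : L ≃ₐ[F] L) (h2 : σ * σ = 1) (h1 : σ ≠ 1) : Even (Module.finrank F L) := by
  have hfd : FiniteDimensional F L := Module.Finite.of_finite
  have hgal : IsGalois F L := inferInstance
  have hord : orderOf σ = 2 := orderOf_eq_prime (by rw [pow_two]; exact h2) h1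
  have hdvd : orderOf σ ∣ Nat.card (L ≃ₐ[F] L) := orderOf_dvd_natCard σ
  rw [hord, IsGalois.card_aut_eq_finrank] at hdvd
  exact even_iff_two_dvd.2 hdvd

/-- G4 -/
theorem even_finrank_of_not_selfadjoint [Fintype F] {f : (ι → F) → (ι → F) → F}
    (hf : IsSymmetricForm f) (Z : Subalgebra F (Matrix ι ι F))
    (hcomm : ∀ x ∈ Z, ∀ y ∈ Z, x * y = y * x) (hinv : ∀ x ∈ Z, x ≠ 0 → ∃ y ∈ Z, x * y = 1)
    (hadj : IsAdjointClosedFor f Z) (hns : ¬ IsSelfAdjointFor f Z) :
    Even (Module.finrank F Z) := by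
  classical
  have hnt : Nontrivial (Matrix ι ι F) := by
    by_contra hcon
    rw [not_nontrivial_iff_subsingleton] at hcon
    apply hns
    intro k hk u v
    have h0 : k = 1 := Subsingleton.elim _ _
    rw [h0, Matrix.one_mulVec, Matrix.one_mulVec]
  have hfield : IsField ↥Z :=
    { exists_pair_ne := ⟨0, 1, fun h => zero_ne_one (congrArg Subtype.val h)⟩
      mul_comm := fun x y => Subtype.ext (hcomm x.1 x.2 y.1 y.2)
      mul_inv_cancel := by
        intro a ha
        obtain ⟨y, hy, hay⟩ := hinv a.1 a.2 (fun h => ha (Subtype.ext h))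
        exact ⟨⟨y, hy⟩, Subtype.ext hay⟩ }
  let instF : Field ↥Z := hfield.toField
  let instA : Algebra F ↥Z := Z.algebra
  have hfinite : Finite ↥Z := inferInstance
  choose s hsZ hs using hadj
  have hsA : ∀ (k : Matrix ι ι F) (hk : k ∈ Z), Adj f k (s k hk) := hs
  let τ : ↥Z → ↥Z := fun x => ⟨s x.1 x.2, hsZ x.1 x.2⟩
  have hτ : ∀ x : ↥Z, Adj f x.1 (τ x).1 := fun x => hsA x.1 x.2
  have hττ : ∀ x, τ (τ x) = x := by
    intro x
    apply Subtype.ext
    exact adj_unique hf (hτ (τ x)) (adj_symm hf (hτ x))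
  have hmul : ∀ x y, τ (x * y) = τ x * τ y := by
    intro x y
    apply Subtype.ext
    have h1 : Adj f (x.1 * y.1) ((τ y).1 * (τ x).1) := (hτ x).mul (hτ y)
    rw [hcomm _ (τ y).2 _ (τ x).2] at h1
    exact adj_unique hf (hτ (x * y)) h1
  have hadd : ∀ x y, τ (x + y) = τ x + τ y := by
    intro x y
    apply Subtype.ext
    exact adj_unique hf (hτ (x + y)) (adj_add hf (hτ x) (hτ y))
  have halg : ∀ c : F, τ (algebraMap F ↥Z c) = algebraMap F ↥Z c := by
    intro c
    apply Subtype.ext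
    exact adj_unique hf (hτ (algebraMap F ↥Z c)) (adj_algMap hf c)
  let σ : ↥Z ≃ₐ[F] ↥Z :=
    { toFun := τ
      invFun := τ
      left_inv := hττ
      right_inv := hττ
      map_mul' := hmul
      map_add' := hadd
      commutes' := halg }
  apply even_finrank_of_involution (↥Z) σ
  · apply AlgEquiv.ext
    intro x
    exact hττ x
  · intro h1
    apply hns
    intro k hk u v
    have h2 : τ ⟨k, hk⟩ = ⟨k, hk⟩ := by
      have := congrArg (fun e : ↥Z ≃ₐ[F] ↥Z => e ⟨k, hk⟩) h1
      exact this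
    have h3 := hτ ⟨k, hk⟩ u v
    rw [h2] at h3
    exact h3

end Cfsg.Agent.Lib.Helper64.O10
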