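import Cfsg.Agent.Lib.Helper21.O10.Defs
import Cfsg.Agent.Lib.Helper12.OE.CD

set_option autoImplicit false
set_option linter.unusedSectionVars false

namespace Cfsg.Agent.Lib.Helper64.O10

open Cfsg Cfsg.Geo Matrix Cfsg.Agent.Lib.Helper13.Asch Cfsg.Agent.Lib.Helper90.Sp
  Cfsg.Agent.Lib.Helper57.OE Cfsg.Agent.Lib.Helper21.O10
open scoped Kronecker MatrixGroups commutatorElement

variable {ι : Type} [Fintype ι] [DecidableEq ι] {F : Type*} [Field F] {Q : (ι → F) → F}

/-- G5 -/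
theorem env_comm_of_comm {B : Subgroup (GL ι F)} (hab : ∀ x ∈ B, ∀ y ∈ B, x * y = y * x) :
    ∀ x ∈ env B, ∀ y ∈ env B, x * y = y * x := by
  have hgen : ∀ a ∈ matrixSet B, ∀ b ∈ matrixSet B, a * b = b * a := by
    rintro _ ⟨x, hx, rfl⟩ _ ⟨y, hy, rfl⟩
    have := congrArg (fun g : GL ι F => (g : Matrix ι ι F)) (hab x hx y hy)
    simpa using this
  have h1 : ∀ a ∈ matrixSet B, ∀ y ∈ env B, a * y = y * a := by
    intro a ha y hy
    unfold env at hy
    induction hy using Algebra.adjoin_induction with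
    | mem b hb => exact hgen a ha b hb
    | algebraMap c => exact (Algebra.commutes c a).symm
    | add p q _ _ hp hq => rw [mul_add, add_mul, hp, hq]
    | mul p q _ _ hp hq => rw [← mul_assoc, hp, mul_assoc, hq, mul_assoc]
  intro x hx y hy
  unfold env at hx
  induction hx using Algebra.adjoin_induction with
  | mem a ha => exact h1 a ha y hy
  | algebraMap c => exact Algebra.commutes c y
  | add p q _ _ hp hq => rw [mul_add, add_mul, hp, hq]
  | mul p q _ _ hp hq => rw [mul_assoc, hq, ← mul_assoc, hp, mul_assoc]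

/-- G6 -/
theorem scalar_of_selfadjoint_field {f : (ι → F) → (ι → F) → F} (hf : IsSymmetricForm f)
    (Z : Subalgebra F (Matrix ι ι F)) (hinv : ∀ x ∈ Z, x ≠ 0 → ∃ y ∈ Z, x * y = 1)
    (hsa : IsSelfAdjointFor f Z) (x : GL ι F) (hx : (x : Matrix ι ι F) ∈ Z)
    (hfix : ∀ u v, f ((x : Matrix ι ι F) *ᵥ u) ((x : Matrix ι ι F) *ᵥ v) = f u v) :
    x ∈ scalars ι F := by
  set X := (x : Matrix ι ι F) with hX
  have hXX : X * X = 1 := by
    have key : ∀ v, (X * X) *ᵥ v = (1 : Matrix ι ι F) *ᵥ v := by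
      intro v
      by_contra hne
      have hne' : (X * X) *ᵥ v - (1 : Matrix ι ι F) *ᵥ v ≠ 0 := sub_ne_zero.2 hne
      obtain ⟨u, hu⟩ := (hf.nondegenerate _ hne').1
      apply hu
      rw [Cfsg.Agent.Lib.Helper12.OE.sf_sub_right hf, ← Matrix.mulVec_mulVec, ← hsa X hx, hfix,
        Matrix.one_mulVec, sub_self]
    ext i j
    have := congrFun (key (Pi.single j 1)) i
    simpa using this
  have h0 : (X - 1) * (X + 1) = 0 := by
    have : (X - 1) * (X + 1) = X * X - 1 := by noncomm_ring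
    rw [this, hXX, sub_self]
  rw [mem_scalars_iff]
  by_cases h1 : X - 1 = 0
  · exact ⟨1, by rw [Units.val_one, one_smul]; exact sub_eq_zero.1 h1⟩
  · obtain ⟨y, -, hy⟩ := hinv _ (Z.sub_mem hx Z.one_mem) h1
    have hy' : y * (X - 1) = 1 := mul_eq_one_comm.1 hy
    have h2 : X + 1 = 0 := by
      calc X + 1 = (y * (X - 1)) * (X + 1) := by rw [hy', one_mul]
        _ = 0 := by rw [mul_assoc, h0, mul_zero]
    refine ⟨-1, ?_⟩
    rw [Units.val_neg, Units.val_one, neg_smul, one_smul]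
    exact eq_neg_of_add_eq_zero_left h2

/-- G7 -/
theorem exists_nonscalar_of_not_le {B : Subgroup (GL ι F)} (hns : ¬ B ≤ scalars ι F) :
    ∃ x ∈ env B, ∀ c : F, x ≠ c • 1 := by
  obtain ⟨x, hx, hxs⟩ := SetLike.not_le_iff_exists.1 hns
  refine ⟨(x : Matrix ι ι F), Algebra.subset_adjoin ⟨x, hx, rfl⟩, ?_⟩
  intro c hc
  apply hxs
  rw [mem_scalars_iff]
  by_cases h0 : c = 0
  · refine ⟨1, ?_⟩
    have h1 : (1 : Matrix ι ι F) = 0 := by
      have : (x : Matrix ι ι F) * ((x⁻¹ : GL ι F) : Matrix ι ι F) = 1 := by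
        rw [← Units.val_mul, mul_inv_cancel, Units.val_one]
      rw [← this, hc, h0, zero_smul, zero_mul]
    rw [hc, h1, smul_zero, smul_zero]
  · exact ⟨Units.mk0 c h0, hc⟩

end Cfsg.Agent.Lib.Helper64.O10
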